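import Cfsg.Agent.H52.Weight
import Cfsg.Agent.Solv.Core
import Cfsg.Agent.Solv.MinNormal

/-! Fixed-point-free automorphisms of order four. -/

set_option autoImplicit false

open Cfsg
open scoped commutatorElement

namespace Cfsg.Agent.H52

universe u

section Fpf

variable {G : Type u} [Group G]

theorem fpf_injective (σ : MulAut G) (hf : ∀ g, σ g = g → g = 1) :
    Function.Injective (fun g : G => g⁻¹ * σ g) := by
  intro g h e
  have e' : g⁻¹ * σ g = h⁻¹ * σ h := e
  have h1 : σ (h * g⁻¹) = h * g⁻¹ := by
    rw [map_mul, map_inv]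
    have : σ g = g * (h⁻¹ * σ h) := by rw [← e', mul_inv_cancel_left]
    rw [this]; group
  exact (mul_inv_eq_one.mp (hf _ h1)).symm

theorem fpf_exists [Finite G] (σ : MulAut G) (hf : ∀ g, σ g = g → g = 1) (g : G) : ∃ h, h⁻¹ * σ h = g :=
  (Finite.injective_iff_surjective.mp (fpf_injective σ hf)) g

theorem fpf_quotient_mem [Finite G] (σ : MulAut G) (hf : ∀ g, σ g = g → g = 1) (N : Subgroup G)
    (hN : ∀ x ∈ N, σ x ∈ N) {g : G} (hg : g⁻¹ * σ g ∈ N) : g ∈ N := by
  let f : N → N := fun n => ⟨(n : G)⁻¹ * σ n, N.mul_mem (N.inv_mem n.2) (hN n n.2)⟩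
  have hfi : Function.Injective f := by
    intro a b h
    exact Subtype.ext (fpf_injective σ hf (congrArg Subtype.val h))
  obtain ⟨n, hn⟩ := (Finite.injective_iff_surjective.mp hfi) ⟨_, hg⟩
  have h1 : (n : G) = g := fpf_injective σ hf (congrArg Subtype.val hn)
  rw [← h1]; exact n.2

/-- Restriction of an automorphism to an invariant subgroup. -/
noncomputable def resAut [Finite G] (σ : MulAut G) (N : Subgroup G) (hN : ∀ x ∈ N, σ x ∈ N) : MulAut N :=
  MulEquiv.ofBijective ((σ.toMonoidHom.comp N.subtype).codRestrict N (fun x => hN x x.2))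
    (Finite.injective_iff_bijective.mp (fun _ _ h => Subtype.ext (σ.injective (congrArg Subtype.val h))))

theorem resAut_coe [Finite G] (σ : MulAut G) (N : Subgroup G) (hN : ∀ x ∈ N, σ x ∈ N) (x : N) :
    ((resAut σ N hN x : N) : G) = σ x := rfl

/-- The automorphism induced on a quotient. -/
noncomputable def quotAut [Finite G] (σ : MulAut G) (N : Subgroup G) [N.Normal] (hN : ∀ x ∈ N, σ x ∈ N) : MulAut (G ⧸ N) :=
  MulEquiv.ofBijective (QuotientGroup.map N N σ.toMonoidHom (fun x hx => hN x hx))
    (Finite.surjective_iff_bijective.mp (by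
      intro y
      obtain ⟨y, rfl⟩ := QuotientGroup.mk_surjective y
      refine ⟨QuotientGroup.mk (σ.symm y), ?_⟩
      change QuotientGroup.mk (σ (σ.symm y)) = _
      rw [MulEquiv.apply_symm_apply]))

theorem quotAut_mk [Finite G] (σ : MulAut G) (N : Subgroup G) [N.Normal] (hN : ∀ x ∈ N, σ x ∈ N) (x : G) :
    quotAut σ N hN (QuotientGroup.mk x) = QuotientGroup.mk (σ x) := rfl

theorem fpf_quotAut [Finite G] (σ : MulAut G) (hf : ∀ g, σ g = g → g = 1) (N : Subgroup G) [N.Normal]
    (hN : ∀ x ∈ N, σ x ∈ N) (x : G ⧸ N) (h : quotAut σ N hN x = x) : x = 1 := by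
  obtain ⟨x, rfl⟩ := QuotientGroup.mk_surjective x
  rw [quotAut_mk, eq_comm, QuotientGroup.eq] at h
  exact (QuotientGroup.eq_one_iff x).mpr (fpf_quotient_mem σ hf N hN h)

theorem fpf_inv_of_sq [Finite G] (σ : MulAut G) (hf : ∀ g, σ g = g → g = 1) (h2 : ∀ g, σ (σ g) = g) (g : G) :
    σ g = g⁻¹ := by
  obtain ⟨h, rfl⟩ := fpf_exists σ hf g
  rw [map_mul, map_inv, h2, mul_inv_rev, inv_inv]

theorem eq_one_of_odd [Finite G] (hodd : Odd (Nat.card G)) {z : G} (h : z = z⁻¹) : z = 1 := by
  have h1 : z ^ 2 = 1 := by rw [pow_two]; nth_rewrite 2 [h]; exact mul_inv_cancel z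
  have h2 : orderOf z ∣ 2 := orderOf_dvd_of_pow_eq_one h1
  have h3 : orderOf z ∣ Nat.card G := orderOf_dvd_natCard z
  have h4 : orderOf z = 1 := by
    have h5 : (Nat.card G).Coprime 2 := hodd.coprime_two_right
    exact Nat.eq_one_of_dvd_coprimes h5 h3 h2
  exact orderOf_eq_one_iff.mp h4

/-- The key configuration: an inverted element commuting with its image. -/
theorem exists_inverted (n : ℕ) : ∀ {H : Type u} [Group H] [Finite H] (_ : Group.IsSolvable H)
    (_ : Odd (Nat.card H)) (s : MulAut H) (_ : ∀ x, s (s (s (s x))) = x) (_ : ∀ x, s x = x → x = 1)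
    (_ : ∃ x, s (s x) ≠ x) (_ : Nat.card H = n), ∃ x, x ≠ 1 ∧ s (s x) = x⁻¹ ∧ x * s x = s x * x := by
  induction n using Nat.strong_induction_on with
  | _ n ih =>
    intro H _ _ hsol hodd s hs4 hfpf hne hn
    by_cases hK : ∃ K : Subgroup H, K ≠ ⊤ ∧ (∀ x ∈ K, s x ∈ K) ∧ ∃ x ∈ K, s (s x) ≠ x
    · obtain ⟨K, hKt, hKs, x, hxK, hx⟩ := hK
      have hlt : Nat.card K < n := by
        rw [← hn]
        apply lt_of_le_of_ne (Nat.le_of_dvd Nat.card_pos (Subgroup.card_subgroup_dvd_card K))
        intro h
        exact hKt (Subgroup.eq_top_of_card_eq K h)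
      obtain ⟨y, hy1, hy2, hy3⟩ := ih _ hlt (H := K) inferInstance
        (Odd.of_dvd_nat hodd (Subgroup.card_subgroup_dvd_card K)) (resAut s K hKs)
        (fun y => Subtype.ext (by rw [resAut_coe, resAut_coe, resAut_coe, resAut_coe]; exact hs4 y))
        (fun y hy => Subtype.ext (hfpf y (by rw [← resAut_coe s K hKs, hy])))
        ⟨⟨x, hxK⟩, fun h => hx (congrArg Subtype.val h)⟩ rfl
      refine ⟨y, fun h => hy1 (Subtype.ext h), congrArg Subtype.val hy2, congrArg Subtype.val hy3⟩
    · have hmin : ∀ K : Subgroup H, K ≠ ⊤ → (∀ x ∈ K, s x ∈ K) → ∀ x ∈ K, s (s x) = x := by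
        intro K hKt hKs x hx
        by_contra h
        exact hK ⟨K, hKt, hKs, x, hx, h⟩
      obtain ⟨x, hx⟩ := hne
      have hnt : Nontrivial H := by
        refine ⟨x, 1, fun h => hx ?_⟩
        rw [h]; simp
      -- an element of the form x⁻¹ α(x) fixed by α is trivial
      have hfix : ∀ y : H, s (s (y⁻¹ * s (s y))) = y⁻¹ * s (s y) → s (s y) = y := by
        intro y hy
        have h1 : s (s (y⁻¹ * s (s y))) = (y⁻¹ * s (s y))⁻¹ := by
          rw [map_mul, map_mul, map_inv, map_inv, hs4, mul_inv_rev, inv_inv]
        rw [hy] at h1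
        have h2 := eq_one_of_odd hodd h1
        exact (inv_mul_eq_one.mp h2).symm
      set D := commutator H with hD
      have hDs : ∀ d ∈ D, s d ∈ D := by
        intro d hd
        have : D.Characteristic := inferInstance
        have h1 := Subgroup.characteristic_iff_map_eq.mp this s
        rw [← h1]
        exact ⟨d, hd, rfl⟩
      have hDt : D ≠ ⊤ := (Group.IsSolvable.commutator_lt_top_of_nontrivial H).ne
      have hDα : ∀ d ∈ D, s (s d) = d := hmin D hDt hDs
      -- D is central
      set C := Subgroup.centralizer (D : Set H) with hC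
      have hCs : ∀ c ∈ C, s c ∈ C := by
        intro c hc
        rw [hC, Subgroup.mem_centralizer_iff] at hc ⊢
        intro d hd
        have h1 := hc (s (s (s d))) (hDs _ (hDs _ (hDs _ hd)))
        have h2 := congrArg s h1
        rw [map_mul, map_mul, hs4] at h2
        exact h2
      have hCt : C = ⊤ := by
        by_contra hCt
        have hCα := hmin C hCt hCs
        apply hx
        apply hfix
        apply hCα
        rw [hC, Subgroup.mem_centralizer_iff]
        intro d hd
        have h1 := hDα _ ((inferInstance : D.Normal).conj_mem d hd x)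
        rw [map_mul, map_mul, map_mul, map_mul, hDα d hd, map_inv, map_inv] at h1
        calc d * (x⁻¹ * s (s x)) = x⁻¹ * (x * d * x⁻¹) * s (s x) := by group
          _ = x⁻¹ * (s (s x) * d * (s (s x))⁻¹) * s (s x) := by rw [h1]
          _ = x⁻¹ * s (s x) * d := by group
      have hDc : ∀ d ∈ D, ∀ y : H, d * y = y * d := by
        intro d hd y
        have : y ∈ C := by rw [hCt]; trivial
        exact Subgroup.mem_centralizer_iff.mp this d hd
      -- α inverts H/D
      let φ : H →* Abelianization H := Abelianization.of * (Abelianization.of.comp (s * s : MulAut H).toMonoidHom)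
      have hφ : ∀ y, y ∈ φ.ker ↔ y * s (s y) ∈ D := by
        intro y
        rw [MonoidHom.mem_ker]
        change Abelianization.of y * Abelianization.of (s (s y)) = 1 ↔ _
        rw [← map_mul, ← MonoidHom.mem_ker, Abelianization.ker_of]
      have hU : φ.ker = ⊤ := by
        by_contra hU
        have hUα := hmin φ.ker hU (fun y hy => by
          rw [hφ] at hy ⊢
          rw [← map_mul s]
          have := hDs _ hy
          have e : s (s (s y)) = s (s (s y)) := rfl
          rw [map_mul] at this ⊢
          exact this)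
        apply hx
        apply hfix
        apply hUα
        rw [hφ]
        have h1 : s (s (x⁻¹ * s (s x))) = (x⁻¹ * s (s x))⁻¹ := by
          rw [map_mul, map_mul, map_inv, map_inv, hs4, mul_inv_rev, inv_inv]
        rw [h1, mul_inv_cancel]
        exact D.one_mem
      have hinv : ∀ y, y * s (s y) ∈ D := by
        intro y
        rw [← hφ, hU]; trivial
      -- x commutes with s x
      have hcomm : x * s x = s x * x := by
        set d := x * s (s x) with hd
        have hdD : d ∈ D := hinv x
        have hsx : s (s x) = x⁻¹ * d := by rw [hd]; group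
        have hcD : x * s x * x⁻¹ * (s x)⁻¹ ∈ D := by
          have h1 := Subgroup.commutator_mem_commutator (H₁ := (⊤ : Subgroup H)) (H₂ := ⊤) (g₁ := x) (g₂ := s x) trivial trivial
          rw [commutatorElement_def] at h1
          exact h1
        have hfixc : s (x * s x * x⁻¹ * (s x)⁻¹) = x * s x * x⁻¹ * (s x)⁻¹ := by
          have e1 : s (x * s x * x⁻¹ * (s x)⁻¹) = s x * (x⁻¹ * d) * (s x)⁻¹ * (x⁻¹ * d)⁻¹ := by
            rw [map_mul, map_mul, map_mul, map_inv, map_inv, hsx]
          have e2 : s x * (x⁻¹ * d) * (s x)⁻¹ * (x⁻¹ * d)⁻¹ = s x * x⁻¹ * (s x)⁻¹ * x := by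
            calc s x * (x⁻¹ * d) * (s x)⁻¹ * (x⁻¹ * d)⁻¹ = s x * x⁻¹ * (d * (s x)⁻¹) * d⁻¹ * x := by group
              _ = s x * x⁻¹ * ((s x)⁻¹ * d) * d⁻¹ * x := by rw [hDc d hdD]
              _ = s x * x⁻¹ * (s x)⁻¹ * x := by group
          have e3 : s x * x⁻¹ * (s x)⁻¹ * x = x⁻¹ * ((x * s x * x⁻¹ * (s x)⁻¹) * x) := by group
          rw [e1, e2, e3, hDc _ hcD x]; group
        have h1 := hfpf _ hfixc
        calc x * s x = (x * s x * x⁻¹ * (s x)⁻¹) * (s x * x) := by group
          _ = s x * x := by rw [h1, one_mul]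
      -- the subgroup generated by x, s x and D is everything
      let W := Subgroup.closure (({x, s x} : Set H) ∪ (D : Set H))
      have hxW : x ∈ W := Subgroup.subset_closure (Or.inl (by simp))
      have hsxW : s x ∈ W := Subgroup.subset_closure (Or.inl (by simp))
      have hDW : ∀ d ∈ D, d ∈ W := fun d hd => Subgroup.subset_closure (Or.inr hd)
      have hWs : ∀ w ∈ W, s w ∈ W := by
        have : W ≤ W.comap (s : H →* H) := by
          rw [Subgroup.closure_le]
          rintro w (hw | hw)
          · rcases hw with rfl | hw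
            · exact hsxW
            · rw [Set.mem_singleton_iff] at hw
              subst hw
              have h1 := hinv x
              have h2 : s (s x) = x⁻¹ * (x * s (s x)) := by group
              change s (s x) ∈ W
              rw [h2]
              exact W.mul_mem (W.inv_mem hxW) (hDW _ h1)
          · exact hDW _ (hDs w hw)
        exact this
      have hWt : W = ⊤ := by
        by_contra hWt
        exact hx (hmin W hWt hWs x hxW)
      have hcx : ∀ w, w ∈ W → w ∈ Subgroup.centralizer ({x, s x} : Set H) := by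
        have : W ≤ Subgroup.centralizer ({x, s x} : Set H) := by
          rw [Subgroup.closure_le]
          rintro w (hw | hw)
          · rw [SetLike.mem_coe, Subgroup.mem_centralizer_iff]
            rintro y (rfl | hy)
            · rcases hw with rfl | hw
              · rfl
              · rw [Set.mem_singleton_iff] at hw; subst hw; exact hcomm
            · rw [Set.mem_singleton_iff] at hy
              subst hy
              rcases hw with rfl | hw
              · exact hcomm.symm
              · rw [Set.mem_singleton_iff] at hw; subst hw; rfl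
          · rw [SetLike.mem_coe, Subgroup.mem_centralizer_iff]
            intro y _
            exact (hDc w hw y).symm
        exact this
      have hcen : W ≤ Subgroup.center H := by
        rw [Subgroup.closure_le]
        rintro w (hw | hw)
        · rw [SetLike.mem_coe, Subgroup.mem_center_iff]
          intro g
          have h1 := hcx g (by rw [hWt]; trivial)
          rw [Subgroup.mem_centralizer_iff] at h1
          exact (h1 w hw).symm
        · rw [SetLike.mem_coe, Subgroup.mem_center_iff]
          intro g
          exact (hDc w hw g).symm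
      have hDbot : D = ⊥ := by
        rw [hD, commutator_def, Subgroup.commutator_eq_bot_iff_le_centralizer]
        intro y _
        rw [Subgroup.mem_centralizer_iff]
        intro z _
        have : y ∈ Subgroup.center H := hcen (by rw [hWt]; trivial)
        exact (Subgroup.mem_center_iff.mp this z)
      refine ⟨x, fun h => hx (by rw [h]; simp), ?_, hcomm⟩
      have h1 := hinv x
      rw [hDbot, Subgroup.mem_bot] at h1
      exact (inv_eq_of_mul_eq_one_right h1).symm

end Fpf

end Cfsg.Agent.H52
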