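import Cfsg.Agent.H52.FPF4

/-! Fixed-point-free automorphisms of order four: the action on a chief factor. -/

set_option autoImplicit false

open Cfsg
open scoped commutatorElement

namespace Cfsg.Agent.H52

universe u v

section Lin

variable {V : Type v} [CommGroup V] (p : ℕ) [Fact p.Prime]

/-- An automorphism as a linear map. -/
def autLin [Module (ZMod p) (Additive V)] (φ : MulAut V) : Module.End (ZMod p) (Additive V) :=
  (MonoidHom.toAdditive φ.toMonoidHom).toZModLinearMap p

theorem autLin_apply [Module (ZMod p) (Additive V)] (φ : MulAut V) (v : V) :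
    autLin p φ (Additive.ofMul v) = Additive.ofMul (φ v) := rfl

theorem autLin_mul [Module (ZMod p) (Additive V)] (φ ψ : MulAut V) :
    autLin p (φ * ψ) = autLin p φ * autLin p ψ := by
  ext v; rfl

theorem autLin_one [Module (ZMod p) (Additive V)] : autLin p (1 : MulAut V) = 1 := by
  ext v; rfl

theorem autLin_pow [Module (ZMod p) (Additive V)] (φ : MulAut V) (m : ℕ) :
    autLin p (φ ^ m) = autLin p φ ^ m := by
  induction m with
  | zero => rw [pow_zero, pow_zero, autLin_one]
  | succ m ih => rw [pow_succ, pow_succ, autLin_mul, ih]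

theorem autLin_injective [Module (ZMod p) (Additive V)] : Function.Injective (autLin (V := V) p) := by
  intro φ ψ h
  ext v
  exact congrArg Additive.toMul (LinearMap.congr_fun h (Additive.ofMul v))

/-- Multiplicative version of the weight lemma. -/
theorem weight_mul [Finite V] (hexp : ∀ v : V, v ^ p = 1) (X Y S : MulAut V) (hXY : X * Y = Y * X)
    (hSX : S * X = Y * S) (hSY : S * Y = X⁻¹ * S) (hS : ∀ v, S v = v → v = 1) (hS4 : ∀ v, S (S (S (S v))) = v)
    (m : ℕ) (hm : X ^ m = 1) (hodd : Odd m) (hmp : m.Coprime p) : X = 1 := by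
  letI : Module (ZMod p) (Additive V) := AddCommGroup.zmodModule (fun x => by
    change Additive.ofMul ((Additive.toMul x) ^ p) = 0
    rw [hexp]; rfl)
  have hfd : FiniteDimensional (ZMod p) (Additive V) := Module.Finite.of_finite
  apply autLin_injective p
  rw [autLin_one]
  refine @weight (ZMod p) (Additive V) _ _ _ hfd (autLin p X) (autLin p X⁻¹) (autLin p Y) (autLin p S)
    (by rw [← autLin_mul, mul_inv_cancel, autLin_one]) (by rw [← autLin_mul, hXY, autLin_mul])
    (by rw [← autLin_mul, hSX, autLin_mul]) (by rw [← autLin_mul, hSY, autLin_mul]) ?_ m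
    (by rw [← autLin_pow, hm, autLin_one]) hodd ?_
  swap
  · intro h
    rw [ZMod.natCast_eq_zero_iff] at h
    have hp : p.Prime := Fact.out
    exact hp.one_lt.ne' (Nat.dvd_one.mp (hmp ▸ Nat.dvd_gcd h dvd_rfl))
  · ext v
    have h1 : Additive.toMul v * S (Additive.toMul v) * S (S (Additive.toMul v)) * S (S (S (Additive.toMul v))) = 1 := by
      apply hS
      rw [map_mul, map_mul, map_mul, hS4]
      rw [mul_comm, ← mul_assoc, ← mul_assoc]
    exact h1

end Lin

/-- The group acting on a chief factor is abelian. -/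
theorem comm_of_chief {H : Type u} [Group H] [Finite H] (hsol : Group.IsSolvable H) (hodd : Odd (Nat.card H))
    (s : MulAut H) (hs4 : ∀ x, s (s (s (s x))) = x) (hfpf : ∀ x, s x = x → x = 1)
    {V : Type v} [CommGroup V] [Finite V] [Nontrivial V] (p : ℕ) [Fact p.Prime] (hexp : ∀ v : V, v ^ p = 1)
    (ρ : H →* MulAut V) (hρ : Function.Injective ρ) (S : MulAut V) (hS4 : ∀ v, S (S (S (S v))) = v)
    (hS : ∀ v, S v = v → v = 1) (hint : ∀ h v, S (ρ h v) = ρ (s h) (S v))
    (hirr : ∀ W : Subgroup V, (∀ h, ∀ w ∈ W, ρ h w ∈ W) → (∀ w ∈ W, S w ∈ W) → W = ⊥ ∨ W = ⊤) :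
    ∀ x y : H, x * y = y * x := by
  have hpcore : pCore p H = ⊥ := by
    let W : Subgroup V :=
      { carrier := {v | ∀ h ∈ pCore p H, ρ h v = v}
        one_mem' := fun h _ => map_one _
        mul_mem' := fun {a b} ha hb h hh => by rw [map_mul, ha h hh, hb h hh]
        inv_mem' := fun {a} ha h hh => by rw [map_inv, ha h hh] }
    have hW1 : ∀ h, ∀ w ∈ W, ρ h w ∈ W := by
      intro h w hw k hk
      have h1 : ρ (h⁻¹ * k * h) w = w := by
        apply hw
        have := (inferInstance : (pCore p H).Normal).conj_mem k hk h⁻¹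
        rwa [inv_inv] at this
      calc ρ k (ρ h w) = (ρ h) ((ρ (h⁻¹ * k * h)) w) := by
            rw [← MulAut.mul_apply, ← MulAut.mul_apply, ← map_mul, ← map_mul]
            congr 2
            group
        _ = ρ h w := by rw [h1]
    have hW2 : ∀ w ∈ W, S w ∈ W := by
      intro w hw k hk
      have hchar : (pCore p H).Characteristic := inferInstance
      have h1 := Subgroup.characteristic_iff_map_eq.mp hchar s
      have h2 : k ∈ (pCore p H).map (MulEquiv.toMonoidHom s) := by rw [h1]; exact hk
      obtain ⟨k', hk', rfl⟩ := h2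
      change ρ (s k') (S w) = S w
      rw [← hint, hw k' hk']
    have hW3 : W ≠ ⊥ := by
      -- p-group action
      intro hWbot
      let P := pCore p H
      have hP : IsPGroup p P := Cfsg.Agent.Solv.pCore_isPGroup p
      let act : MulAction P V :=
        { smul := fun h v => ρ (h : H) v
          one_smul := fun v => by
            change ρ ((1 : P) : H) v = v
            rw [Subgroup.coe_one, map_one]; rfl
          mul_smul := fun a b v => by
            change ρ ((a * b : P) : H) v = ρ a (ρ b v)
            rw [Subgroup.coe_mul, map_mul]; rfl }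
      have hVp : p ∣ Nat.card V := by
        obtain ⟨v, hv⟩ := exists_ne (1 : V)
        have h1 : orderOf v = p := orderOf_eq_prime (hexp v) hv
        rw [← h1]; exact orderOf_dvd_natCard v
      have h1 := hP.exists_fixed_point_of_prime_dvd_card_of_fixed_point (α := V) hVp (a := 1) (by
        intro h
        change ρ (h : H) 1 = 1
        exact map_one _)
      obtain ⟨b, hb, hb1⟩ := h1
      apply hb1
      have : b ∈ W := fun h hh => hb ⟨h, hh⟩
      rw [hWbot, Subgroup.mem_bot] at this
      exact this.symm
    rcases hirr W hW1 hW2 with h | h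
    · exact absurd h hW3
    · rw [eq_bot_iff]
      intro k hk
      rw [Subgroup.mem_bot]
      apply hρ
      rw [map_one]
      ext v
      have : v ∈ W := by rw [h]; trivial
      exact this k hk
  -- α is trivial on each O_q
  have hcore : ∀ q : Nat.Primes, ∀ x ∈ pCore (q : ℕ) H, s (s x) = x := by
    rintro ⟨q, hq⟩ x hx
    by_cases hqp : q = p
    · subst hqp
      change x ∈ pCore q H at hx
      rw [hpcore, Subgroup.mem_bot] at hx
      rw [hx]; simp
    by_contra hne
    have hinvar : ∀ x ∈ pCore q H, s x ∈ pCore q H := by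
      intro x hx
      have hchar : (pCore q H).Characteristic := inferInstance
      have h1 := Subgroup.characteristic_iff_map_eq.mp hchar s
      rw [← h1]
      exact ⟨x, hx, rfl⟩
    obtain ⟨y, hy1, hy2, hy3⟩ := exists_inverted _ (H := pCore q H) inferInstance
      (Odd.of_dvd_nat hodd (Subgroup.card_subgroup_dvd_card _)) (resAut s _ hinvar)
      (fun y => Subtype.ext (by rw [resAut_coe, resAut_coe, resAut_coe, resAut_coe]; exact hs4 y))
      (fun y hy => Subtype.ext (hfpf y (by rw [← resAut_coe s _ hinvar, hy])))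
      ⟨⟨x, hx⟩, fun h => hne (congrArg Subtype.val h)⟩ rfl
    apply hy1
    have e2 : s (s (y : H)) = (y : H)⁻¹ := congrArg Subtype.val hy2
    have e3 : (y : H) * s y = s y * y := congrArg Subtype.val hy3
    apply Subtype.ext
    apply hρ
    rw [Subgroup.coe_one, map_one]
    have hqf : Fact q.Prime := ⟨hq⟩
    obtain ⟨k, hk⟩ := IsPGroup.iff_orderOf.mp (Cfsg.Agent.Solv.pCore_isPGroup (G := H) q) y
    have hSrel : ∀ h : H, S * ρ h = ρ (s h) * S := by
      intro h
      ext v
      exact hint h v
    apply weight_mul p hexp (ρ y) (ρ (s y)) S (by rw [← map_mul, e3, map_mul]) (hSrel y)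
      (by rw [hSrel, e2, map_inv]) hS hS4 (orderOf (y : H))
    · rw [← map_pow, pow_orderOf_eq_one, map_one]
    · exact Odd.of_dvd_nat hodd (orderOf_dvd_natCard _)
    · rw [Subgroup.orderOf_coe, hk]
      exact Nat.Coprime.pow_left k ((Nat.coprime_primes hq Fact.out).mpr hqp)
  -- α is trivial on the Fitting subgroup
  let T : Subgroup H :=
    { carrier := {x | s (s x) = x}
      one_mem' := by change s (s 1) = 1; simp
      mul_mem' := fun {a b} ha hb => by
        change s (s (a * b)) = a * b
        change s (s a) = a at ha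
        change s (s b) = b at hb
        rw [map_mul, map_mul, ha, hb]
      inv_mem' := fun {a} ha => by
        change s (s a⁻¹) = a⁻¹
        change s (s a) = a at ha
        rw [map_inv, map_inv, ha] }
  have hF : fittingSubgroup H ≤ T := by
    rw [Cfsg.Agent.Solv.fitting_eq_iSup_pCore]
    exact iSup_le fun q => hcore q
  have hα : ∀ x, s (s x) = x := by
    intro x
    have h1 : x⁻¹ * s (s x) ∈ Subgroup.centralizer (fittingSubgroup H : Set H) := by
      rw [Subgroup.mem_centralizer_iff]
      intro d hd
      have h1 : s (s (x * d * x⁻¹)) = x * d * x⁻¹ := hF ((inferInstance : (fittingSubgroup H).Normal).conj_mem d hd x)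
      have h2 : s (s d) = d := hF hd
      rw [map_mul, map_mul, map_mul, map_mul, h2, map_inv, map_inv] at h1
      calc d * (x⁻¹ * s (s x)) = x⁻¹ * (x * d * x⁻¹) * s (s x) := by group
        _ = x⁻¹ * (s (s x) * d * (s (s x))⁻¹) * s (s x) := by rw [h1]
        _ = x⁻¹ * s (s x) * d := by group
    have h2 : s (s (x⁻¹ * s (s x))) = x⁻¹ * s (s x) := hF (Cfsg.Agent.Solv.centralizer_fitting_le h1)
    have h3 : s (s (x⁻¹ * s (s x))) = (x⁻¹ * s (s x))⁻¹ := by
      rw [map_mul, map_mul, map_inv, map_inv, hs4, mul_inv_rev, inv_inv]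
    rw [h2] at h3
    exact (inv_mul_eq_one.mp (eq_one_of_odd hodd h3)).symm
  have hinv := fpf_inv_of_sq s hfpf hα
  intro x y
  have h1 := hinv (x * y)
  rw [map_mul, hinv, hinv, mul_inv_rev] at h1
  have h2 := congrArg (fun z => z⁻¹) h1
  simp only [mul_inv_rev, inv_inv] at h2
  exact h2.symm

end Cfsg.Agent.H52
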