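import Cfsg.Agent.S0572
import Cfsg.Agent.H52.Basic
import Cfsg.Agent.H52.Nilp
import Cfsg.Agent.Transfer.Residual
import Cfsg.Agent.Solv.Core
import Cfsg.Agent.Solv.MinNormal
import Cfsg.Agent.H10.Factor

/-! Products of an abelian subgroup and a subgroup of class at most two (for Kazarin's bound). -/

set_option autoImplicit false

open scoped commutatorElement

namespace Cfsg.Agent.H52

theorem isNilpotent_of_class_two {B : Type*} [Group B] (h : commutator B ≤ Subgroup.center B) :
    Group.IsNilpotent B := by
  have h1 : IsMulCommutative (B ⧸ Subgroup.center B) :=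
    Subgroup.Normal.quotient_commutative_iff_commutator_le.mpr h
  have h2 : Group.IsNilpotent (B ⧸ Subgroup.center B) := by
    open scoped IsMulCommutative in
    infer_instance
  exact Group.of_quotient_center_nilpotent h2

theorem comm_of_commutator_eq_bot {G : Type*} [Group G] {A : Subgroup G} (h : ⁅A, A⁆ = ⊥) {x y : G}
    (hx : x ∈ A) (hy : y ∈ A) : x * y = y * x := by
  rw [Subgroup.commutator_eq_bot_iff_le_centralizer] at h
  exact (Subgroup.mem_centralizer_iff.mp (h hx) y hy).symm

theorem derivedSeries_add_le {G : Type*} [Group G] (H : Subgroup G) (m : ℕ)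
    (h : derivedSeries G m ≤ H) (k : ℕ) :
    derivedSeries G (m + k) ≤ (derivedSeries H k).map H.subtype := by
  induction k with
  | zero =>
    rw [Nat.add_zero, derivedSeries_zero, ← MonoidHom.range_eq_map, Subgroup.range_subtype]
    exact h
  | succ k ih =>
    rw [← Nat.add_assoc, derivedSeries_succ, derivedSeries_succ, Subgroup.map_commutator]
    exact Subgroup.commutator_mono ih ih

theorem derivedSeries_le_of_quotient {G : Type*} [Group G] (N : Subgroup G) [N.Normal] (k : ℕ)
    (h : derivedSeries (G ⧸ N) k = ⊥) : derivedSeries G k ≤ N := by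
  have h1 : (derivedSeries G k).map (QuotientGroup.mk' N) ≤ derivedSeries (G ⧸ N) k :=
    map_derivedSeries_le_derivedSeries _ k
  rw [h, le_bot_iff, Subgroup.map_eq_bot_iff, QuotientGroup.ker_mk'] at h1
  exact h1

/-- Key lemma: if `H = A B` is solvable with `A` abelian, `[B,B]` central in `B`, and `H = ⟨A, [B,B]⟩`,
then `B` is abelian. -/
theorem key_class_two (n : ℕ) : ∀ {H : Type*} [Group H] [Finite H] (_ : Group.IsSolvable H) (A B : Subgroup H)
    (_ : ⁅A, A⁆ = ⊥) (_ : ⁅⁅B, B⁆, B⁆ = ⊥) (_ : ∀ g : H, ∃ a ∈ A, ∃ b ∈ B, g = a * b)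
    (_ : A ⊔ ⁅B, B⁆ = ⊤) (_ : Nat.card H = n), ⁅B, B⁆ = ⊥ := by
  induction n using Nat.strong_induction_on with
  | _ n ih =>
    intro H _ _ hsol A B hA hB hAB htop hn
    by_contra hne
    -- every nontrivial normal subgroup contains [B,B]
    have hquot : ∀ N : Subgroup H, N.Normal → N ≠ ⊥ → ⁅B, B⁆ ≤ N := by
      intro N hN hN1
      have hcard : Nat.card (H ⧸ N) < n := by
        have h1 := Subgroup.card_eq_card_quotient_mul_card_subgroup N
        have h2 : 1 < Nat.card N := by rw [Subgroup.one_lt_card_iff_ne_bot]; exact hN1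
        have h3 : 0 < Nat.card (H ⧸ N) := Nat.card_pos
        rw [← hn, h1]
        exact lt_mul_of_one_lt_right h3 h2
      have h := ih _ hcard (H := H ⧸ N) inferInstance (A.map (QuotientGroup.mk' N)) (B.map (QuotientGroup.mk' N))
        (by rw [← Subgroup.map_commutator, hA, Subgroup.map_bot])
        (by rw [← Subgroup.map_commutator, ← Subgroup.map_commutator, hB, Subgroup.map_bot])
        (by
          intro g
          obtain ⟨g, rfl⟩ := QuotientGroup.mk'_surjective N g
          obtain ⟨a, ha, b, hb, rfl⟩ := hAB g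
          exact ⟨_, ⟨a, ha, rfl⟩, _, ⟨b, hb, rfl⟩, by rw [map_mul]⟩)
        (by
          rw [← Subgroup.map_commutator, ← Subgroup.map_sup, htop,
            Subgroup.map_top_of_surjective _ (QuotientGroup.mk'_surjective N)])
        rfl
      rw [← Subgroup.map_commutator, Subgroup.map_eq_bot_iff, QuotientGroup.ker_mk'] at h
      exact h
    -- [B,B] ≤ N implies H = A ⊔ N
    have hsup : ∀ N : Subgroup H, ⁅B, B⁆ ≤ N → A ⊔ N = ⊤ := by
      intro N hN
      rw [eq_top_iff, ← htop]
      exact sup_le_sup_left hN A
    have hnotab : ¬ ∀ x y : H, x * y = y * x := by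
      intro h
      apply hne
      rw [Subgroup.commutator_eq_bot_iff_le_centralizer]
      intro x _
      rw [Subgroup.mem_centralizer_iff]
      intro y _
      exact h y x
    -- centre trivial
    have hZ : Subgroup.center H = ⊥ := by
      by_contra hZ
      have h1 := hsup _ (hquot _ inferInstance hZ)
      apply hnotab
      have hfac : ∀ x : H, ∃ a ∈ A, ∃ z ∈ Subgroup.center H, x = a * z := by
        intro x
        have hx : x ∈ A ⊔ Subgroup.center H := by rw [h1]; trivial
        rw [← SetLike.mem_coe, Subgroup.mul_normal] at hx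
        obtain ⟨a, ha, z, hz, rfl⟩ := hx
        exact ⟨a, ha, z, hz, rfl⟩
      intro x y
      obtain ⟨a, ha, z, hz, rfl⟩ := hfac x
      obtain ⟨a', ha', z', hz', rfl⟩ := hfac y
      have e1 := Subgroup.mem_center_iff.mp hz
      have e2 := Subgroup.mem_center_iff.mp hz'
      have e3 := comm_of_commutator_eq_bot hA ha ha'
      calc a * z * (a' * z') = a * (z * a') * z' := by group
        _ = a * (a' * z) * z' := by rw [e1 a']
        _ = (a * a') * (z * z') := by group
        _ = (a' * a) * (z' * z) := by rw [e3, e1 z']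
        _ = a' * (a * z') * z := by group
        _ = a' * (z' * a) * z := by rw [e2 a]
        _ = a' * z' * (a * z) := by group
    have hBne : (⊤ : Subgroup H) ≠ ⊥ := by
      intro h
      apply hne
      rw [eq_bot_iff, ← h]; exact le_top
    obtain ⟨M, hMn, -, hM1, hMmin⟩ := Cfsg.Agent.Solv.exists_minimal_normal (⊤ : Subgroup H) inferInstance hBne
    obtain ⟨hMab, p, hp, hMexp⟩ := Cfsg.Agent.Solv.minimal_normal_of_solvable M inferInstance hM1 hMmin
    have hpf : Fact p.Prime := ⟨hp⟩
    have hMp : IsPGroup p M := by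
      rw [isPGroup_iff_pow_pow_eq_one]
      intro x
      refine ⟨1, ?_⟩
      apply Subtype.ext
      simpa using hMexp x x.2
    have hMc : ∀ x ∈ M, ∀ y ∈ M, x * y = y * x := fun x hx y hy => Cfsg.Agent.Solv.comm_of_isMulCommutative hMab hx hy
    have hBM := hquot M hMn hM1
    have hAM := hsup M hBM
    have hfac : ∀ x : H, ∃ a ∈ A, ∃ z ∈ M, x = a * z := by
      intro x
      have hx : x ∈ A ⊔ M := by rw [hAM]; trivial
      rw [← SetLike.mem_coe, Subgroup.mul_normal] at hx
      obtain ⟨a, ha, z, hz, rfl⟩ := hx
      exact ⟨a, ha, z, hz, rfl⟩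
    -- elements of A centralising M are trivial
    have hCA : ∀ a ∈ A, (∀ m ∈ M, a * m = m * a) → a = 1 := by
      intro a ha hm
      rw [← Subgroup.mem_bot, ← hZ, Subgroup.mem_center_iff]
      intro x
      obtain ⟨a', ha', z, hz, rfl⟩ := hfac x
      calc a' * z * a = a' * (z * a) := by group
        _ = a' * (a * z) := by rw [hm z hz]
        _ = (a' * a) * z := by group
        _ = (a * a') * z := by rw [comm_of_commutator_eq_bot hA ha' ha]
        _ = a * (a' * z) := by group
    have hCM : ∀ x : H, (∀ m ∈ M, x * m = m * x) → x ∈ M := by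
      intro x hx
      obtain ⟨a, ha, z, hz, rfl⟩ := hfac x
      have h1 : a = 1 := by
        apply hCA a ha
        intro m hm
        have h2 := hx m hm
        have h3 := hMc z hz m hm
        have h4 : (a * m) * z = (m * a) * z := by
          calc (a * m) * z = a * (m * z) := by group
            _ = a * (z * m) := by rw [h3]
            _ = a * z * m := by group
            _ = m * (a * z) := h2
            _ = (m * a) * z := by group
        exact mul_right_cancel h4
      rw [h1, one_mul]; exact hz
    have hAMi : A ⊓ M = ⊥ := by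
      rw [eq_bot_iff]
      rintro x ⟨hxA, hxM⟩
      exact hCA x hxA (fun m hm => hMc x hxM m hm)
    -- p does not divide |A|
    have hpA : ¬ p ∣ Nat.card A := by
      intro hpA
      obtain ⟨a, ha⟩ := exists_prime_orderOf_dvd_card' (G := A) p hpA
      have ha1 : (a : H) ≠ 1 := by
        intro h
        have : a = 1 := Subtype.ext h
        rw [this, orderOf_one] at ha
        exact hp.one_lt.ne ha
      -- fixed points of a on M
      have hnil : IsPGroup p (M ⊔ Subgroup.zpowers (a : H) : Subgroup H) := by
        apply IsPGroup.to_sup_of_normal_left hMp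
        apply IsPGroup.of_card (n := 1)
        rw [Nat.card_zpowers, Subgroup.orderOf_coe, ha, pow_one]
      let K : Subgroup H := M ⊓ Subgroup.centralizer ({(a : H)} : Set H)
      have hKn : K.Normal := by
        constructor
        intro x hx g
        obtain ⟨a', ha', z, hz, rfl⟩ := hfac g
        have hxc := Subgroup.mem_centralizer_singleton_iff.mp hx.2
        have h1 : a' * z * x * (a' * z)⁻¹ = a' * x * a'⁻¹ := by
          have := hMc z hz x hx.1
          calc a' * z * x * (a' * z)⁻¹ = a' * (z * x) * z⁻¹ * a'⁻¹ := by group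
            _ = a' * (x * z) * z⁻¹ * a'⁻¹ := by rw [this]
            _ = a' * x * a'⁻¹ := by group
        rw [h1]
        refine ⟨hMn.conj_mem x hx.1 a', ?_⟩
        apply Subgroup.mem_centralizer_singleton_iff.mpr
        have h2 := comm_of_commutator_eq_bot hA ha' a.2
        have h3 : a'⁻¹ * (a : H) = a * a'⁻¹ := comm_of_commutator_eq_bot hA (A.inv_mem ha') a.2
        calc a' * x * a'⁻¹ * (a : H) = a' * x * (a'⁻¹ * a) := by group
          _ = a' * x * (a * a'⁻¹) := by rw [h3]
          _ = a' * (x * a) * a'⁻¹ := by group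
          _ = a' * (a * x) * a'⁻¹ := by rw [hxc]
          _ = (a' * a) * x * a'⁻¹ := by group
          _ = (a * a') * x * a'⁻¹ := by rw [h2]
          _ = a * (a' * x * a'⁻¹) := by group
      have hKne : K ≠ ⊥ := by
        set T := M ⊔ Subgroup.zpowers (a : H) with hT
        have hTnil : Group.IsNilpotent T := hnil.isNilpotent
        have hMT : M ≤ T := le_sup_left
        have h1 : (M.subgroupOf T) ⊓ Subgroup.center T ≠ ⊥ := by
          apply Cfsg.Agent.Solv.inf_center_ne_bot_of_nilpotent
          rw [Ne, Subgroup.subgroupOf_eq_bot]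
          intro h
          apply hM1
          rw [eq_bot_iff]
          intro x hx
          exact (Subgroup.disjoint_def.mp h hx (hMT hx))
        obtain ⟨x, hx1⟩ := Subgroup.ne_bot_iff_exists_ne_one.mp h1
        intro hK
        have hx2 := x.2
        have hxK : ((x : T) : H) ∈ K := by
          refine ⟨hx2.1, ?_⟩
          apply Subgroup.mem_centralizer_singleton_iff.mpr
          have hcz := Subgroup.mem_center_iff.mp hx2.2 ⟨(a : H), (le_sup_right : Subgroup.zpowers (a : H) ≤ T) (Subgroup.mem_zpowers _)⟩
          exact (congrArg Subtype.val hcz).symm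
        rw [hK, Subgroup.mem_bot] at hxK
        apply hx1
        exact Subtype.ext (Subtype.ext hxK)
      have hKM : K = M := (hMmin K hKn inf_le_left).resolve_left hKne
      apply ha1
      apply hCA a a.2
      intro m hm
      have : m ∈ K := by rw [hKM]; exact hm
      exact (Subgroup.mem_centralizer_singleton_iff.mp this.2).symm
    have hcardH : Nat.card H = Nat.card A * Nat.card M := by
      have := card_eq_mul_of_factor (⊤ : Subgroup H) A M le_top le_top hAMi (fun x _ => hfac x)
      rwa [Subgroup.card_top] at this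
    obtain ⟨k, hk⟩ := IsPGroup.iff_card.mp hMp
    have hMi : M.index = Nat.card A := by
      have := M.card_mul_index
      rw [hcardH, mul_comm] at this
      exact Nat.eq_of_mul_eq_mul_right Nat.card_pos this
    -- p-elements lie in M
    have hpM : ∀ x : H, (∃ j, orderOf x = p ^ j) → x ∈ M := by
      rintro x ⟨j, hj⟩
      rw [← QuotientGroup.eq_one_iff, ← orderOf_eq_one_iff]
      have h1 : orderOf (x : H ⧸ M) ∣ p ^ j := by
        rw [← hj]; exact orderOf_map_dvd (QuotientGroup.mk' M) x
      have h2 : orderOf (x : H ⧸ M) ∣ Nat.card A := by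
        rw [← hMi]; exact orderOf_dvd_natCard _
      exact Nat.eq_one_of_dvd_coprimes (Nat.Coprime.pow_right j ((Nat.Prime.coprime_iff_not_dvd hp).mpr hpA).symm) h2 h1
    -- M ≤ B
    have hMB : M ≤ B := by
      -- |H| |A ∩ B| = |A| |B|
      have h1 : Nat.card B * Nat.card A = Nat.card H * Nat.card ↥(A ⊓ B) := by
        have e1 := (Cfsg.Agent.H10.relIndex_eq_index_iff (H := A) (K := B)).mpr hAB
        have e2 := Cfsg.Agent.H10.card_inf_mul_relIndex A B
        have e3 := A.card_mul_index
        rw [e1] at e2
        rw [← e2, ← e3]; ring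
      have h2 : Nat.card B = Nat.card M * Nat.card ↥(A ⊓ B) := by
        rw [hcardH, mul_assoc, mul_comm] at h1
        exact Nat.eq_of_mul_eq_mul_left Nat.card_pos h1
      -- |B : B ∩ M| is prime to p
      have h3 : ¬ p ∣ M.relIndex B := by
        intro h
        apply hpA
        rw [← hMi]
        exact h.trans (Subgroup.relIndex_dvd_index_of_normal M B)
      have h4 : Nat.card ↥(B ⊓ M) * M.relIndex B = Nat.card B := by
        rw [← Subgroup.inf_relIndex_left B M]
        exact Cfsg.Agent.H10.card_mul_relIndex _ _ inf_le_left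
      have h5 : Nat.card M ∣ Nat.card ↥(B ⊓ M) := by
        have h6 : Nat.card M ∣ Nat.card ↥(B ⊓ M) * M.relIndex B := by rw [h4, h2]; exact Dvd.intro _ rfl
        apply Nat.Coprime.dvd_of_dvd_mul_right _ h6
        rw [hk]
        exact Nat.Coprime.pow_left k ((Nat.Prime.coprime_iff_not_dvd hp).mpr h3)
      have h7 : B ⊓ M = M := Subgroup.eq_of_le_of_card_ge inf_le_right (Nat.le_of_dvd Nat.card_pos h5)
      exact inf_eq_right.mp h7
    -- B nilpotent
    have hBnil : Group.IsNilpotent B := by
      apply isNilpotent_of_class_two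
      intro x hx
      rw [Subgroup.mem_center_iff]
      intro y
      have hx' : (x : H) ∈ ⁅B, B⁆ := by
        rw [← Subgroup.map_subtype_commutator]; exact ⟨x, hx, rfl⟩
      rw [Subgroup.commutator_eq_bot_iff_le_centralizer] at hB
      exact Subtype.ext (Subgroup.mem_centralizer_iff.mp (hB hx') y y.2)
    have hBleM : B ≤ M := by
      intro b hb
      obtain ⟨i, j, hij, hi, hj⟩ := Cfsg.Agent.Transfer.exists_pow_decomp p b (orderOf_pos b).ne'
      rw [hij]
      apply M.mul_mem (hpM _ hi)
      apply hCM
      intro m hm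
      obtain ⟨l, hl⟩ := IsPGroup.iff_orderOf.mp hMp ⟨m, hm⟩
      rw [Subgroup.orderOf_mk] at hl
      have := commute_of_isNilpotent_of_coprime hBnil (x := ⟨b ^ j, B.pow_mem hb j⟩) (y := ⟨m, hMB hm⟩)
        (by rw [Subgroup.orderOf_mk, Subgroup.orderOf_mk, hl]; exact Nat.Coprime.pow_right l hj)
      exact congrArg Subtype.val this
    apply hne
    rw [Subgroup.commutator_eq_bot_iff_le_centralizer]
    intro x hx
    rw [Subgroup.mem_centralizer_iff]
    intro y hy
    exact hMc y (hBleM hy) x (hBleM hx)

end Cfsg.Agent.H52
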