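import Mathlib.LinearAlgebra.Eigenspace.Triangularizable
import Mathlib.LinearAlgebra.Eigenspace.Minpoly
import Mathlib.FieldTheory.IsAlgClosed.AlgebraicClosure
import Mathlib.RingTheory.Flat.FaithfullyFlat.Basic
import Mathlib.LinearAlgebra.TensorProduct.Tower
import Mathlib.RingTheory.TensorProduct.Basic
import Mathlib.Algebra.Field.ZMod
import Mathlib.Algebra.Module.ZMod
import Mathlib.Tactic.Module
import Mathlib.Tactic.LinearCombination
import Mathlib.Tactic.NoncommRing

/-! The weight argument for an operator `S` with `1 + S + S² + S³ = 0` normalising an abelian group. -/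

set_option autoImplicit false

open scoped TensorProduct

namespace Cfsg.Agent.H52

section Closed

variable {K V : Type*} [Field K] [IsAlgClosed K] [AddCommGroup V] [Module K V] [FiniteDimensional K V]

omit [IsAlgClosed K] [FiniteDimensional K V] in
theorem kill_step (f : Module.End K V) {v0 v1 v2 v3 : V} {c0 c1 c2 c3 x0 x1 x2 x3 : K} (a : K)
    (h : c0 • v0 + c1 • v1 + c2 • v2 + c3 • v3 = 0) (h0 : f v0 = x0 • v0) (h1 : f v1 = x1 • v1)
    (h2 : f v2 = x2 • v2) (h3 : f v3 = x3 • v3) :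
    (c0 * (x0 - a)) • v0 + (c1 * (x1 - a)) • v1 + (c2 * (x2 - a)) • v2 + (c3 * (x3 - a)) • v3 = 0 := by
  have e := congrArg f h
  simp only [map_add, map_smul, map_zero, h0, h1, h2, h3] at e
  have e2 := congrArg (fun w => a • w) h
  simp only [smul_add, smul_zero] at e2
  calc (c0 * (x0 - a)) • v0 + (c1 * (x1 - a)) • v1 + (c2 * (x2 - a)) • v2 + (c3 * (x3 - a)) • v3
      = (c0 • x0 • v0 + c1 • x1 • v1 + c2 • x2 • v2 + c3 • x3 • v3)
        - (a • c0 • v0 + a • c1 • v1 + a • c2 • v2 + a • c3 • v3) := by module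
    _ = 0 := by rw [e, e2, sub_zero]

/-- Common eigenvector inside an invariant subspace. -/
theorem exists_common_eigenvector (X Y : Module.End K V) (hXY : X * Y = Y * X) (W : Submodule K V)
    (hW : W ≠ ⊥) (hX : ∀ w ∈ W, X w ∈ W) (hY : ∀ w ∈ W, Y w ∈ W) :
    ∃ v ∈ W, v ≠ 0 ∧ ∃ a b : K, X v = a • v ∧ Y v = b • v := by
  have hnt : Nontrivial W := Submodule.nontrivial_iff_ne_bot.mpr hW
  obtain ⟨a, ha⟩ := Module.End.exists_eigenvalue (X.restrict hX)
  obtain ⟨w, hw⟩ := ha.exists_hasEigenvector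
  have hw1 : X (w : V) = a • (w : V) := congrArg Subtype.val hw.apply_eq_smul
  let E : Submodule K V := W ⊓ LinearMap.ker (X - a • (1 : Module.End K V))
  have hE : E ≠ ⊥ := by
    intro h
    have : (w : V) ∈ E := by
      refine Submodule.mem_inf.mpr ⟨w.2, ?_⟩
      rw [LinearMap.mem_ker, LinearMap.sub_apply, LinearMap.smul_apply, Module.End.one_apply, hw1, sub_self]
    rw [h, Submodule.mem_bot] at this
    exact hw.2 (Subtype.ext this)
  have hEmem : ∀ v, v ∈ E ↔ v ∈ W ∧ X v = a • v := by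
    intro v
    constructor
    · intro h12
      obtain ⟨h1, h2⟩ := Submodule.mem_inf.mp h12
      refine ⟨h1, ?_⟩
      rw [LinearMap.mem_ker, LinearMap.sub_apply, LinearMap.smul_apply, Module.End.one_apply, sub_eq_zero] at h2
      exact h2
    · rintro ⟨h1, h2⟩
      refine Submodule.mem_inf.mpr ⟨h1, ?_⟩
      rw [LinearMap.mem_ker, LinearMap.sub_apply, LinearMap.smul_apply, Module.End.one_apply, h2, sub_self]
  have hEY : ∀ v ∈ E, Y v ∈ E := by
    intro v hv
    rw [hEmem] at hv ⊢
    refine ⟨hY v hv.1, ?_⟩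
    have : X (Y v) = Y (X v) := by
      change (X * Y) v = (Y * X) v
      rw [hXY]
    rw [this, hv.2, map_smul]
  have hnt2 : Nontrivial E := Submodule.nontrivial_iff_ne_bot.mpr hE
  obtain ⟨b, hb⟩ := Module.End.exists_eigenvalue (Y.restrict hEY)
  obtain ⟨v, hv⟩ := hb.exists_hasEigenvector
  have hv1 : Y (v : V) = b • (v : V) := congrArg Subtype.val hv.apply_eq_smul
  exact ⟨v, ((hEmem v).mp v.2).1, fun h => hv.2 (Subtype.ext h), a, b, ((hEmem v).mp v.2).2, hv1⟩

theorem weight_closed (X X' Y S : Module.End K V) (hXX' : X * X' = 1) (hXY : X * Y = Y * X)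
    (hSX : S * X = Y * S) (hSY : S * Y = X' * S) (hS : 1 + S + S ^ 2 + S ^ 3 = 0) (m : ℕ) (hm : X ^ m = 1)
    (hodd : Odd m) (hm0 : (m : K) ≠ 0) : X = 1 := by
  by_contra hne
  have hS4 : S ^ 4 = 1 := by
    have : (S - 1) * (1 + S + S ^ 2 + S ^ 3) = S ^ 4 - 1 := by noncomm_ring
    rw [hS, mul_zero] at this
    exact (sub_eq_zero.mp this.symm)
  have hYm : Y ^ m = 1 := by
    have h1 : ∀ i : ℕ, S * X ^ i = Y ^ i * S := by
      intro i
      induction i with
      | zero => simp
      | succ i ih => rw [pow_succ, ← mul_assoc, ih, mul_assoc, hSX, ← mul_assoc, ← pow_succ]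
    have h2 := h1 m
    rw [hm, mul_one] at h2
    calc Y ^ m = Y ^ m * (S * S ^ 3) := by
          have : S * S ^ 3 = 1 := by rw [← pow_succ']; exact hS4
          rw [this, mul_one]
      _ = S * S ^ 3 := by rw [← mul_assoc, ← h2]
      _ = 1 := by rw [← pow_succ']; exact hS4
  let W : Submodule K V := LinearMap.range (X - 1)
  have hW : W ≠ ⊥ := by
    intro h
    rw [LinearMap.range_eq_bot, sub_eq_zero] at h
    exact hne h
  have hWX : ∀ w ∈ W, X w ∈ W := by
    rintro _ ⟨u, rfl⟩
    refine ⟨X u, ?_⟩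
    change ((X - 1) * X) u = (X * (X - 1)) u
    rw [mul_sub, sub_mul, mul_one, one_mul]
  have hWY : ∀ w ∈ W, Y w ∈ W := by
    rintro _ ⟨u, rfl⟩
    refine ⟨Y u, ?_⟩
    change ((X - 1) * Y) u = (Y * (X - 1)) u
    rw [mul_sub, sub_mul, mul_one, one_mul, hXY]
  obtain ⟨v, hvW, hv0, a, b, hXv, hYv⟩ := exists_common_eigenvector X Y hXY W hW hWX hWY
  have hpow : ∀ (f : Module.End K V) (c : K), f v = c • v → ∀ i : ℕ, (f ^ i) v = c ^ i • v := by
    intro f c hf i
    induction i with
    | zero => simp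
    | succ i ih =>
      rw [pow_succ', Module.End.mul_apply, ih, map_smul, hf, smul_smul, pow_succ]
  have ham : a ^ m = 1 := by
    have h1 := hpow X a hXv m
    rw [hm, Module.End.one_apply] at h1
    have h2 : (a ^ m - 1) • v = 0 := by rw [sub_smul, ← h1, one_smul, sub_self]
    exact sub_eq_zero.mp ((smul_eq_zero.mp h2).resolve_right hv0)
  have hbm : b ^ m = 1 := by
    have h1 := hpow Y b hYv m
    rw [hYm, Module.End.one_apply] at h1
    have h2 : (b ^ m - 1) • v = 0 := by rw [sub_smul, ← h1, one_smul, sub_self]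
    exact sub_eq_zero.mp ((smul_eq_zero.mp h2).resolve_right hv0)
  have hmne : m ≠ 0 := by rintro rfl; simp at hodd
  have ha0 : a ≠ 0 := by rintro rfl; rw [zero_pow hmne] at ham; exact zero_ne_one ham
  have hb0 : b ≠ 0 := by rintro rfl; rw [zero_pow hmne] at hbm; exact zero_ne_one hbm
  -- a ≠ 1
  have ha1 : a ≠ 1 := by
    intro h1
    have hsum : (∑ i ∈ Finset.range m, X ^ i) v = (m : K) • v := by
      rw [LinearMap.sum_apply]
      have : ∀ i ∈ Finset.range m, (X ^ i) v = v := by
        intro i _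
        rw [hpow X a hXv i, h1, one_pow, one_smul]
      rw [Finset.sum_congr rfl this, Finset.sum_const, Finset.card_range, Nat.cast_smul_eq_nsmul]
    obtain ⟨u, hu⟩ := hvW
    have h2 : (∑ i ∈ Finset.range m, X ^ i) v = 0 := by
      rw [← hu]
      change ((∑ i ∈ Finset.range m, X ^ i) * (X - 1)) u = 0
      rw [geom_sum_mul, hm, sub_self]; rfl
    rw [h2] at hsum
    exact hv0 ((smul_eq_zero.mp hsum.symm).resolve_left hm0)
  have hsq : ∀ c : K, c ^ m = 1 → c * c = 1 → c = 1 := by
    intro c h1 h2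
    obtain ⟨k, rfl⟩ := hodd
    rw [pow_add, pow_mul, pow_two, h2, one_pow, one_mul, pow_one] at h1
    exact h1
  have haa : a * a ≠ 1 := fun h => ha1 (hsq a ham h)
  -- weights of S w
  have hstep : ∀ (w : V) (x y : K), y ≠ 0 → X w = x • w → Y w = y • w → X (S w) = y⁻¹ • S w ∧ Y (S w) = x • S w := by
    intro w x y hy hx hy'
    constructor
    · have h1 : X * (S * Y) = S := by rw [hSY, ← mul_assoc, hXX', one_mul]
      have h2 := congrArg (fun f : Module.End K V => f w) h1
      simp only [Module.End.mul_apply] at h2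
      rw [hy', map_smul, map_smul] at h2
      have h3 : X (S w) = y⁻¹ • (y • X (S w)) := by rw [smul_smul, inv_mul_cancel₀ hy, one_smul]
      rw [h3, h2]
    · have h2 := congrArg (fun f : Module.End K V => f w) hSX
      simp only [Module.End.mul_apply] at h2
      rw [hx, map_smul] at h2
      exact h2.symm
  obtain ⟨hX1, hY1⟩ := hstep v a b hb0 hXv hYv
  obtain ⟨hX2, hY2⟩ := hstep (S v) b⁻¹ a ha0 hX1 hY1
  obtain ⟨hX3, hY3⟩ := hstep (S (S v)) a⁻¹ b⁻¹ (inv_ne_zero hb0) hX2 hY2
  rw [inv_inv] at hX3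
  have hrel : (1 : K) • v + (1 : K) • S v + (1 : K) • S (S v) + (1 : K) • S (S (S v)) = 0 := by
    have := congrArg (fun f : Module.End K V => f v) hS
    simp only [LinearMap.add_apply, Module.End.one_apply, LinearMap.zero_apply] at this
    simp only [one_smul]
    exact this
  have hainv : a - a⁻¹ ≠ 0 := by
    intro h
    apply haa
    exact (mul_eq_one_iff_eq_inv₀ ha0).mpr (sub_eq_zero.mp h)
  by_cases hab : b = a
  · -- case C
    subst hab
    have e1 := kill_step X b⁻¹ hrel hXv hX1 hX2 hX3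
    have e2 := kill_step Y b⁻¹ e1 hYv hY1 hY2 hY3
    simp only [sub_self, mul_zero, zero_mul, zero_smul, add_zero, one_mul] at e2
    exact (mul_ne_zero hainv hainv) ((smul_eq_zero.mp e2).resolve_right hv0)
  by_cases hab' : b = a⁻¹
  · -- case B
    subst hab'
    rw [inv_inv] at hX1
    have e1 := kill_step X a⁻¹ hrel hXv hX1 hX2 hX3
    have e2 := kill_step Y a e1 hYv hY1 hY2 hY3
    simp only [sub_self, mul_zero, zero_mul, zero_smul, add_zero, one_mul] at e2
    have hh : a⁻¹ - a ≠ 0 := by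
      intro h; apply hainv; rw [← neg_sub, h, neg_zero]
    exact (mul_ne_zero hainv hh) ((smul_eq_zero.mp e2).resolve_right hv0)
  · -- case A
    have e1 := kill_step X a⁻¹ hrel hXv hX1 hX2 hX3
    have e2 := kill_step X b⁻¹ e1 hXv hX1 hX2 hX3
    have e3 := kill_step X b e2 hXv hX1 hX2 hX3
    simp only [sub_self, mul_zero, zero_mul, zero_smul, add_zero, one_mul] at e3
    have h1 : a - b⁻¹ ≠ 0 := by
      intro h
      apply hab'
      have : a = b⁻¹ := sub_eq_zero.mp h
      rw [this, inv_inv]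
    have h2 : a - b ≠ 0 := fun h => hab (sub_eq_zero.mp h).symm
    exact (mul_ne_zero (mul_ne_zero hainv h1) h2) ((smul_eq_zero.mp e3).resolve_right hv0)

end Closed

theorem weight {k V : Type*} [Field k] [AddCommGroup V] [Module k V] [FiniteDimensional k V]
    (X X' Y S : Module.End k V) (hXX' : X * X' = 1) (hXY : X * Y = Y * X)
    (hSX : S * X = Y * S) (hSY : S * Y = X' * S) (hS : 1 + S + S ^ 2 + S ^ 3 = 0) (m : ℕ) (hm : X ^ m = 1)
    (hodd : Odd m) (hm0 : (m : k) ≠ 0) : X = 1 := by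
  let K := AlgebraicClosure k
  let β : Module.End k V →ₐ[k] Module.End K (TensorProduct k K V) := Module.End.baseChangeHom k K V
  have hβ : Function.Injective β := by
    rw [injective_iff_map_eq_zero]
    intro f hf
    ext v
    have h1 : β f (1 ⊗ₜ[k] v) = 0 := by rw [hf]; rfl
    have h2 : β f (1 ⊗ₜ[k] v) = 1 ⊗ₜ[k] (f v) := rfl
    rw [h2] at h1
    have h3 := Module.Flat.tensorProduct_mk_injective k V K
    have h4 : (1 : K) ⊗ₜ[k] (f v) = (1 : K) ⊗ₜ[k] (0 : V) := by rw [h1, TensorProduct.tmul_zero]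
    exact h3 h4
  apply hβ
  rw [map_one]
  apply weight_closed (β X) (β X') (β Y) (β S) (by rw [← map_mul, hXX', map_one])
    (by rw [← map_mul, hXY, map_mul]) (by rw [← map_mul, hSX, map_mul]) (by rw [← map_mul, hSY, map_mul])
    (by rw [← map_one β, ← map_pow, ← map_pow, ← map_add, ← map_add, ← map_add, hS, map_zero]) m
    (by rw [← map_pow, hm, map_one]) hodd
  intro h
  apply hm0
  have : algebraMap k K (m : k) = 0 := by rw [map_natCast]; exact h
  exact (map_eq_zero _).mp this

end Cfsg.Agent.H52
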